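import Mathlib
import Cfsg.Agent.H98.Lat.AlgInt
import Cfsg.Agent.Blocks.Blau
import Cfsg.Agent.Blocks.Elementary
import Cfsg.Agent.Blocks.PrincipalSection

/-!
# The height of a character of the principal block from its values on regular `p`-sections (helper32)

`x` with `p ∤ |G : C_G(x)|`: `χ x / χ 1` is a local integer, and a local unit if `χ` is in the principal block.  So if
`p ^ h ∣ χ 1` then the mean value of `|χ|²` over any set of such elements, closed under powers prime to `|G|`, is at
least `p ^ (2 h)`.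
-/

set_option autoImplicit false
set_option linter.unusedSectionVars false

open Cfsg
open scoped ComplexConjugate

namespace Cfsg.Agent.H32.HT

open Cfsg.Agent.Characters.Core Cfsg.Agent.Characters.GaloisBasic Cfsg.Agent.H616 Cfsg.Agent.Blocks
  Cfsg.Agent.Blocks.Basic Cfsg.Agent.Blocks.Local

universe u

variable {G : Type u} [Group G] [Finite G] {p : ℕ} {M : Ideal AlgInt}

/-- The values of a character at the powers of an element form a Galois family. -/
theorem galFam_char {χ : G → ℂ} (hχ : IsIrrCharacter G χ) (g : G) :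
    GalFam (Nat.card G) fun k => χ (g ^ k) := by
  refine ⟨fun k => Elementary.isIntegral_char hχ _, fun k k' hk => ?_, fun σ m hσ k => ?_⟩
  · have h1 : g ^ k = g ^ k' := by
      rw [pow_eq_pow_iff_modEq]
      exact hk.of_dvd (orderOf_dvd_natCard g)
    rw [h1]
  · rw [map_apply σ hσ (isIrr_isCharacter hχ) Nat.card_pos.ne' pow_card_eq_one', ← pow_mul]

/-- `χ x / p ^ h` is a local integer. -/
theorem memLocalRing_val (hM : IsPModular p M) {χ : G → ℂ} (hχ : IsIrrCharacter G χ) {x : G}
    (hx : ¬ p ∣ (Subgroup.centralizer ({x} : Set G)).index) {h : ℕ} (hd : p ^ h ∣ charDegree χ) :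
    MemLocalRing M (χ x / (p : ℂ) ^ h) := by
  have := isPrime_of_isPModular hM
  obtain ⟨m, hm⟩ := hd
  have hp0 : (p : ℂ) ≠ 0 := by exact_mod_cast hM.1.ne_zero
  have h1 : χ 1 = ((p ^ h * m : ℕ) : ℂ) := by
    rw [← hm]
    exact irr_one_eq_charDegree hχ
  have hχ1 : χ 1 ≠ 0 := by
    rw [irr_one_eq_charDegree hχ]
    exact_mod_cast (charDegree_pos hχ).ne'
  set c : ℕ := (Subgroup.centralizer ({x} : Set G)).index with hc
  have hc0 : (c : ℂ) ≠ 0 := by
    exact_mod_cast Subgroup.index_ne_zero_of_finite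
  have h2 : χ x / (p : ℂ) ^ h = (m : ℂ) * (centralChar χ x * (c : ℂ)⁻¹) := by
    rw [centralChar_def, ← hc, h1]
    rw [h1] at hχ1
    have hm0 : (m : ℂ) ≠ 0 := by
      intro h0
      apply hχ1
      push_cast
      rw [h0, mul_zero]
    push_cast
    field_simp
  rw [h2]
  exact memLocalRing_mul (memLocalRing_natCast m)
    (memLocalRing_mul (memLocalRing_of_isIntegral (Blau.isIntegral_centralChar' hχ x))
      (memLocalRing_inv_natCast hM hx))

/-- characters of the principal block do not vanish at elements with class size prime to `p` -/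
theorem val_ne_zero (hM : IsPModular p M) {χ : IrrCharacter G} (hB : χ ∈ principalBlock M G) {x : G}
    (hx : ¬ p ∣ (Subgroup.centralizer ({x} : Set G)).index) : (χ : G → ℂ) x ≠ 0 := by
  have := isPrime_of_isPModular hM
  intro h0
  have h1 := (centralChar_memLocalIdeal_iff (PrincipalSection.isPBlock_principalBlock (M := M)) hB
    (PrincipalSection.one_mem_principalBlock (M := M)) x).1 (by
      rw [centralChar_def, h0, mul_zero, zero_div]
      exact memLocalIdeal_zero)
  rw [centralChar_def] at h1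
  simp only [mul_one, div_one] at h1
  exact hx ((memLocalIdeal_natCast_iff hM _).1 h1)

/-- **The mean value bound** on a set of elements of class size prime to `p`. -/
theorem card_le_sum (hM : IsPModular p M) {χ : G → ℂ} (hχ : IsIrrCharacter G χ) (X : Finset G)
    (hX : ∀ x ∈ X, ∀ m : ℕ, m.Coprime (Nat.card G) → x ^ m ∈ X)
    (hx : ∀ x ∈ X, ¬ p ∣ (Subgroup.centralizer ({x} : Set G)).index) (h0 : ∀ x ∈ X, χ x ≠ 0)
    {h : ℕ} (hd : p ^ h ∣ charDegree χ) :
    ((p : ℝ) ^ h) ^ 2 * X.card ≤ ∑ x ∈ X, ‖χ x‖ ^ 2 := by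
  classical
  have hne : NeZero (Nat.card G) := ⟨Nat.card_pos.ne'⟩
  have h1 : ∀ x ∈ X, ((p : ℝ) ^ h) ^ 2 * Fintype.card (ZMod (Nat.card G))ˣ ≤
      ∑ u : (ZMod (Nat.card G))ˣ, ‖χ (x ^ (u : ZMod (Nat.card G)).val)‖ ^ 2 := by
    intro x hxX
    refine (galFam_char hχ x).card_le_sum (by rw [pow_one]; exact h0 x hxX) hM fun u => ?_
    have h2 := hX x hxX _ (ZMod.val_coe_unit_coprime u)
    exact memLocalRing_val hM hχ (hx _ h2) hd
  have h2 := Finset.sum_le_sum h1
  rw [Finset.sum_comm, Finset.sum_const, nsmul_eq_mul] at h2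
  have h3 : ∀ u : (ZMod (Nat.card G))ˣ,
      ∑ x ∈ X, ‖χ (x ^ (u : ZMod (Nat.card G)).val)‖ ^ 2 = ∑ x ∈ X, ‖χ x‖ ^ 2 := by
    intro u
    have hinj : Function.Injective fun x : G => x ^ (u : ZMod (Nat.card G)).val :=
      (powCoprime (ZMod.val_coe_unit_coprime u).symm).injective
    have himg : X.image (fun x : G => x ^ (u : ZMod (Nat.card G)).val) = X := by
      apply Finset.eq_of_subset_of_card_le
      · intro y hy
        obtain ⟨x, hxX, rfl⟩ := Finset.mem_image.1 hy
        exact hX x hxX _ (ZMod.val_coe_unit_coprime u)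
      · rw [Finset.card_image_of_injective _ hinj]
    conv_rhs => rw [← himg]
    rw [Finset.sum_image fun a _ b _ hab => hinj hab]
  rw [Finset.sum_congr rfl fun u _ => h3 u, Finset.sum_const, Finset.card_univ, nsmul_eq_mul] at h2
  have h4 : (0 : ℝ) < Fintype.card (ZMod (Nat.card G))ˣ := by exact_mod_cast Fintype.card_pos
  nlinarith [h2, h4]

end Cfsg.Agent.H32.HT
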